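import Cfsg.Agent.Lib.H40.TCF24G.Chk
set_option Elab.async false
set_option autoImplicit false
set_option maxRecDepth 100000
set_option linter.all false
namespace H40.TCF24G
open H35.TC
theorem r_20 : allB chkP 10 20480 = true := by decide +kernel
theorem r_21 : allB chkP 10 21504 = true := by decide +kernel
theorem r_22 : allB chkP 10 22528 = true := by decide +kernel
theorem r_23 : allB chkP 10 23552 = true := by decide +kernel
theorem r_24 : allB chkP 10 24576 = true := by decide +kernel
theorem r_25 : allB chkP 10 25600 = true := by decide +kernel
theorem r_26 : allB chkP 10 26624 = true := by decide +kernel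
theorem r_27 : allB chkP 10 27648 = true := by decide +kernel
theorem r_28 : allB chkP 10 28672 = true := by decide +kernel
theorem r_29 : allB chkP 10 29696 = true := by decide +kernel
theorem r_30 : allB chkP 10 30720 = true := by decide +kernel
theorem r_31 : allB chkP 10 31744 = true := by decide +kernel
theorem r_32 : allB chkP 10 32768 = true := by decide +kernel
theorem r_33 : allB chkP 10 33792 = true := by decide +kernel
theorem r_34 : allB chkP 10 34816 = true := by decide +kernel
theorem r_35 : allB chkP 10 35840 = true := by decide +kernel
theorem r_36 : allB chkP 10 36864 = true := by decide +kernel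
theorem r_37 : allB chkP 10 37888 = true := by decide +kernel
theorem r_38 : allB chkP 10 38912 = true := by decide +kernel
theorem r_39 : allB chkP 10 39936 = true := by decide +kernel
end H40.TCF24G
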