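import Cfsg.Agent.Lib.H40.TCF24G.Chk
set_option Elab.async false
set_option autoImplicit false
set_option maxRecDepth 100000
set_option linter.all false
namespace H40.TCF24G
open H35.TC
theorem r_240 : allB chkP 10 245760 = true := by decide +kernel
theorem r_241 : allB chkP 10 246784 = true := by decide +kernel
theorem r_242 : allB chkP 10 247808 = true := by decide +kernel
theorem r_243 : allB chkP 10 248832 = true := by decide +kernel
theorem r_244 : allB chkP 10 249856 = true := by decide +kernel
theorem r_245 : allB chkP 10 250880 = true := by decide +kernel
theorem r_246 : allB chkP 10 251904 = true := by decide +kernel
theorem r_247 : allB chkP 10 252928 = true := by decide +kernel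
theorem r_248 : allB chkP 10 253952 = true := by decide +kernel
theorem r_249 : allB chkP 10 254976 = true := by decide +kernel
theorem r_250 : allB chkP 10 256000 = true := by decide +kernel
theorem r_251 : allB chkP 10 257024 = true := by decide +kernel
theorem r_252 : allB chkP 10 258048 = true := by decide +kernel
theorem r_253 : allB chkP 10 259072 = true := by decide +kernel
theorem r_254 : allB chkP 10 260096 = true := by decide +kernel
theorem r_255 : allB chkP 10 261120 = true := by decide +kernel
theorem r_256 : allB chkP 10 262144 = true := by decide +kernel
theorem r_257 : allB chkP 10 263168 = true := by decide +kernel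
theorem r_258 : allB chkP 10 264192 = true := by decide +kernel
theorem r_259 : allB chkP 10 265216 = true := by decide +kernel
end H40.TCF24G
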